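import Mathlib
import Cfsg.Agent.Lib.Helper77.KS12.LemXDefs

set_option autoImplicit false

/-!
# KS12 / S2945, package T: the 3-group lemma (helper83)
-/

namespace Cfsg.Agent.Lib.Helper83.KS12

open Cfsg.Agent.Lib.Helper77.KS12

universe u

section basics

variable {V : Type*} [CommGroup V]

theorem t_map_mem {α : MulAut V} {u : V} (hu : u ∈ commRange α) : α u ∈ commRange α := by
  obtain ⟨v, rfl⟩ := mem_commRange.mp hu
  rw [map_mul, map_inv]
  exact mem_commRange.mpr ⟨α v, rfl⟩

theorem t_pow_map_mem {α : MulAut V} (k : ℕ) {u : V} (hu : u ∈ commRange α) :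
    (α ^ k) u ∈ commRange α := by
  induction k with
  | zero => simpa using hu
  | succ k ih =>
    rw [pow_succ', MulAut.mul_apply]
    exact t_map_mem ih

theorem t_conj (α β : MulAut V) :
    commRange (β * α * β⁻¹) = (commRange α).map β.toMonoidHom := by
  ext w
  rw [mem_commRange, Subgroup.mem_map]
  constructor
  · rintro ⟨v, rfl⟩
    refine ⟨α (β⁻¹ v) * (β⁻¹ v)⁻¹, mem_commRange.mpr ⟨_, rfl⟩, ?_⟩
    simp [MulAut.mul_apply]
  · rintro ⟨u, hu, rfl⟩
    obtain ⟨v, rfl⟩ := mem_commRange.mp hu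
    refine ⟨β v, ?_⟩
    simp [MulAut.mul_apply]

/-- (F3) -/
theorem t_fix_eq_one (hexp : ∀ v : V, v * v = 1) {α : MulAut V} {m : ℕ} (hm : Odd m)
    (hα : α ^ m = 1) {u : V} (hu : u ∈ commRange α) (hfix : α u = u) : u = 1 := by
  obtain ⟨v, rfl⟩ := mem_commRange.mp hu
  have key : ∀ i : ℕ, (α ^ i) v * v⁻¹ = (α v * v⁻¹) ^ i := by
    intro i
    induction i with
    | zero => simp
    | succ i ih =>
      rw [pow_succ', MulAut.mul_apply, pow_succ, ← ih]
      have h1 : α ((α ^ i) v * v⁻¹) = (α ^ i) v * v⁻¹ := by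
        rw [ih, map_pow, hfix]
      rw [map_mul, map_inv] at h1
      calc α ((α ^ i) v) * v⁻¹ = (α ((α ^ i) v) * (α v)⁻¹) * (α v * v⁻¹) := by
            rw [mul_assoc, inv_mul_cancel_left]
        _ = (α ^ i) v * v⁻¹ * (α v * v⁻¹) := by rw [h1]
  have h2 := key m
  rw [hα] at h2
  simp only [MulAut.one_apply, mul_inv_cancel] at h2
  obtain ⟨j, rfl⟩ := hm
  have h3 : (α v * v⁻¹) ^ 2 = 1 := by rw [pow_two]; exact hexp _
  rw [pow_succ, pow_mul, h3, one_pow, one_mul] at h2
  exact h2.symm

/-- (F4) -/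
theorem t_sq_fix {α : MulAut V} {m : ℕ} (hm : Odd m) (hα : α ^ m = 1) {v : V}
    (h2 : α (α v) = v) : α v = v := by
  obtain ⟨j, rfl⟩ := hm
  have key : ∀ i : ℕ, (α ^ (2 * i)) v = v := by
    intro i
    induction i with
    | zero => simp
    | succ i ih =>
      have : 2 * (i + 1) = 2 * i + 1 + 1 := by ring
      rw [this, pow_succ', pow_succ', MulAut.mul_apply, MulAut.mul_apply, ih, h2]
  have h3 : (α ^ (2 * j + 1)) v = v := by rw [hα]; rfl
  rw [pow_succ', MulAut.mul_apply, key j] at h3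
  exact h3

end basics

theorem t_odd {E : Type*} [Group E] (hE : IsPGroup 3 E) {V : Type*} [CommGroup V]
    (φ : E →* MulAut V) (x : E) : ∃ m : ℕ, Odd m ∧ (φ x) ^ m = 1 := by
  obtain ⟨k, hk⟩ := hE x
  refine ⟨3 ^ k, Odd.pow (by decide), ?_⟩
  rw [← map_pow, hk, map_one]

theorem lemT_aux {V : Type u} [CommGroup V] (hexp : ∀ v : V, v * v = 1) :
    ∀ (n : ℕ) (E : Type u) [Group E] [Finite E], Nat.card E = n → IsPGroup 3 E →
      ∀ (φ : E →* MulAut V) (a b : E), Nat.card (commRange (φ a)) = 4 →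
        Nat.card (commRange (φ b)) = 4 →
        commRange (φ a) = commRange (φ b) ∨ ∀ w ∈ commRange (φ a), φ b w = w := by
  intro n
  induction n using Nat.strong_induction_on with
  | _ n ih =>
  intro E _ _ hn hE φ a b ha hb
  haveI : Fact (Nat.Prime 3) := ⟨by norm_num⟩
  haveI hUfin : Finite (commRange (φ a)) := Nat.finite_of_card_ne_zero (by rw [ha]; norm_num)
  haveI hU'fin : Finite (commRange (φ b)) := Nat.finite_of_card_ne_zero (by rw [hb]; norm_num)
  obtain ⟨mb, hmb, hmb'⟩ := t_odd hE φ b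
  by_cases hA : ∀ w ∈ commRange (φ a), φ b w ∈ commRange (φ a)
  · -- Case A
    by_cases hUU : commRange (φ a) = commRange (φ b)
    · exact Or.inl hUU
    · right
      intro w hw
      have hDU : commRange (φ a) ⊓ commRange (φ b) ≤ commRange (φ a) := inf_le_left
      have hdvd : Nat.card ↥(commRange (φ a) ⊓ commRange (φ b)) ∣ 4 := by
        rw [← ha]; exact Subgroup.card_dvd_of_le hDU
      have hne4 : Nat.card ↥(commRange (φ a) ⊓ commRange (φ b)) ≠ 4 := by
        intro h4
        have h1 : commRange (φ a) ⊓ commRange (φ b) = commRange (φ a) :=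
          Subgroup.eq_of_le_of_card_ge hDU (by rw [h4, ha])
        have h2 : commRange (φ a) ≤ commRange (φ b) := by
          rw [← h1]; exact inf_le_right
        exact hUU (Subgroup.eq_of_le_of_card_ge h2 (by rw [ha, hb]))
      -- the element u
      have hu : φ b w * w⁻¹ ∈ commRange (φ a) ⊓ commRange (φ b) :=
        Subgroup.mem_inf.mpr ⟨mul_mem (hA w hw) (inv_mem hw), mem_commRange.mpr ⟨w, rfl⟩⟩
      have hbu : φ b (φ b w * w⁻¹) ∈ commRange (φ a) ⊓ commRange (φ b) :=
        Subgroup.mem_inf.mpr ⟨hA _ (Subgroup.mem_inf.mp hu).1, t_map_mem (Subgroup.mem_inf.mp hu).2⟩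
      have hfix : φ b (φ b w * w⁻¹) = φ b w * w⁻¹ := by
        by_cases hu1 : φ b w * w⁻¹ = 1
        · rw [hu1, map_one]
        · have hcard2 : Nat.card ↥(commRange (φ a) ⊓ commRange (φ b)) = 2 := by
            have hle : Nat.card ↥(commRange (φ a) ⊓ commRange (φ b)) ≤ 4 :=
              Nat.le_of_dvd (by norm_num) hdvd
            have hpos : Nat.card ↥(commRange (φ a) ⊓ commRange (φ b)) ≠ 0 := by
              intro h0; rw [h0] at hdvd; norm_num at hdvd
            have hne1 : Nat.card ↥(commRange (φ a) ⊓ commRange (φ b)) ≠ 1 := by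
              intro h1
              have := Subgroup.card_eq_one.mp h1
              rw [this, Subgroup.mem_bot] at hu
              exact hu1 hu
            have hne3 : Nat.card ↥(commRange (φ a) ⊓ commRange (φ b)) ≠ 3 := by
              intro h3; rw [h3] at hdvd; norm_num at hdvd
            omega
          obtain ⟨y, -, hy⟩ := (Nat.card_eq_two_iff' (1 : ↥(commRange (φ a) ⊓ commRange (φ b)))).mp hcard2
          have e1 : (⟨_, hu⟩ : ↥(commRange (φ a) ⊓ commRange (φ b))) = y := by
            apply hy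
            intro h; exact hu1 (congrArg Subtype.val h)
          have e2 : (⟨_, hbu⟩ : ↥(commRange (φ a) ⊓ commRange (φ b))) = y := by
            apply hy
            intro h
            have h' : φ b (φ b w * w⁻¹) = 1 := congrArg Subtype.val h
            exact hu1 ((φ b).injective (by rw [h', map_one]))
          exact congrArg Subtype.val (e2.trans e1.symm)
      have h1 : φ b w * w⁻¹ = 1 :=
        t_fix_eq_one hexp hmb hmb' (mem_commRange.mpr ⟨w, rfl⟩) hfix
      exact mul_inv_eq_one.mp h1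
  · -- Case B
    push Not at hA
    obtain ⟨w0, hw0, hw0'⟩ := hA
    have hza : Subgroup.zpowers a ≠ ⊤ := by
      intro htop
      have hbz : b ∈ Subgroup.zpowers a := by rw [htop]; exact Subgroup.mem_top b
      rw [← mem_powers_iff_mem_zpowers] at hbz
      obtain ⟨k, hk⟩ := hbz
      apply hw0'
      have hk' : a ^ k = b := hk
      rw [← hk', map_pow]
      exact t_pow_map_mem k hw0
    obtain hM | ⟨M, hMco, haM⟩ := IsCoatomic.eq_top_or_exists_le_coatom (Subgroup.zpowers a)
    · exact absurd hM hza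
    have haM' : a ∈ M := haM (Subgroup.mem_zpowers a)
    haveI hnil : Group.IsNilpotent E := hE.isNilpotent
    haveI hMn : M.Normal :=
      Subgroup.NormalizerCondition.normal_of_coatom M Group.normalizerCondition_of_isNilpotent hMco
    have hlt : Nat.card M < n := by
      rw [← hn]
      refine lt_of_le_of_ne (Subgroup.card_le_card_group M) ?_
      intro h
      exact hMco.1 (Subgroup.card_eq_iff_eq_top M |>.mp h)
    have hIH : ∀ x y : E, x ∈ M → y ∈ M → Nat.card (commRange (φ x)) = 4 →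
        Nat.card (commRange (φ y)) = 4 →
        commRange (φ x) = commRange (φ y) ∨ ∀ w ∈ commRange (φ x), φ y w = w := by
      intro x y hx hy hcx hcy
      exact ih (Nat.card M) hlt ↥M rfl (hE.to_subgroup M) (φ.comp M.subtype) ⟨x, hx⟩ ⟨y, hy⟩ hcx hcy
    by_cases hbM : b ∈ M
    · exact hIH a b haM' hbM ha hb
    · exfalso
      obtain ⟨m1, hm1, hm1'⟩ := t_odd hE φ (b * a * b⁻¹)
      have ha1M : b * a * b⁻¹ ∈ M := hMn.conj_mem a haM' b
      have ha2M : b * (b * a * b⁻¹) * b⁻¹ ∈ M := hMn.conj_mem _ ha1M b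
      have hU1 : commRange (φ (b * a * b⁻¹)) = (commRange (φ a)).map (φ b).toMonoidHom := by
        rw [map_mul, map_mul, map_inv]; exact t_conj _ _
      have hU2 : commRange (φ (b * (b * a * b⁻¹) * b⁻¹))
          = (commRange (φ (b * a * b⁻¹))).map (φ b).toMonoidHom := by
        rw [map_mul φ (b * (b * a * b⁻¹)) b⁻¹, map_mul φ b (b * a * b⁻¹), map_inv]
        exact t_conj _ _
      have hinj : Function.Injective (φ b).toMonoidHom := (φ b).injective
      have hc1 : Nat.card (commRange (φ (b * a * b⁻¹))) = 4 := by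
        rw [hU1, Subgroup.card_map_of_injective hinj]; exact ha
      have hc2 : Nat.card (commRange (φ (b * (b * a * b⁻¹) * b⁻¹))) = 4 := by
        rw [hU2, Subgroup.card_map_of_injective hinj]; exact hc1
      have hne1 : commRange (φ a) ≠ commRange (φ (b * a * b⁻¹)) := by
        intro h
        apply hw0'
        rw [h, hU1]
        exact Subgroup.mem_map_of_mem _ hw0
      have hne2 : commRange (φ (b * (b * a * b⁻¹) * b⁻¹)) ≠ commRange (φ (b * a * b⁻¹)) := by
        intro h
        rw [hU2] at h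
        exact hne1 (Subgroup.map_injective hinj (h.trans hU1)).symm
      have hfixU : ∀ w ∈ commRange (φ a), φ (b * a * b⁻¹) w = w :=
        (hIH a _ haM' ha1M ha hc1).resolve_left hne1
      have hfixU2 : ∀ w ∈ commRange (φ (b * (b * a * b⁻¹) * b⁻¹)), φ (b * a * b⁻¹) w = w :=
        (hIH _ _ ha2M ha1M hc2 hc1).resolve_left hne2
      -- the key claim
      have hkey : ∀ X ∈ commRange (φ a), ∀ Y ∈ commRange (φ (b * a * b⁻¹)),
          φ b (X * Y) = X * Y → X = 1 ∧ Y = 1 := by
        intro X hX Y hY hXY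
        rw [map_mul] at hXY
        have hbX : φ b X ∈ commRange (φ (b * a * b⁻¹)) := by
          rw [hU1]; exact Subgroup.mem_map_of_mem _ hX
        have hbY : φ b Y ∈ commRange (φ (b * (b * a * b⁻¹) * b⁻¹)) := by
          rw [hU2]; exact Subgroup.mem_map_of_mem _ hY
        have e1 : Y * (φ b X)⁻¹ = X⁻¹ * φ b Y := by
          rw [mul_inv_eq_iff_eq_mul, mul_assoc, mul_comm (φ b Y) (φ b X), hXY,
            inv_mul_cancel_left]
        have hfix1 : φ (b * a * b⁻¹) (Y * (φ b X)⁻¹) = Y * (φ b X)⁻¹ := by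
          rw [e1, map_mul, map_inv, hfixU X hX, hfixU2 _ hbY]
        have hY1 : Y * (φ b X)⁻¹ = 1 :=
          t_fix_eq_one hexp hm1 hm1' (mul_mem hY (inv_mem hbX)) hfix1
        have hYX : Y = φ b X := mul_inv_eq_one.mp hY1
        have hbYX : φ b Y = X := by
          rw [hYX] at hXY ⊢
          have := hXY
          rw [mul_comm X (φ b X)] at this
          exact mul_left_cancel this
        have hbb : φ b (φ b X) = X := by rw [← hYX]; exact hbYX
        have hbX' : φ b X = X := t_sq_fix hmb hmb' hbb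
        have hXY' : Y = X := hYX.trans hbX'
        have hX1 : X = 1 :=
          t_fix_eq_one hexp hm1 hm1' (hXY' ▸ hY) (hfixU X hX)
        exact ⟨hX1, hXY'.trans hX1⟩
      let g : ↥(commRange (φ a)) × ↥(commRange (φ (b * a * b⁻¹))) → ↥(commRange (φ b)) :=
        fun p => ⟨φ b ((p.1 : V) * (p.2 : V)) * ((p.1 : V) * (p.2 : V))⁻¹,
          mem_commRange.mpr ⟨_, rfl⟩⟩
      have hg : Function.Injective g := by
        rintro ⟨⟨u, hu⟩, ⟨u1, hu1⟩⟩ ⟨⟨u', hu'⟩, ⟨u1', hu1'⟩⟩ h
        have h0 : φ b (u * u1) * (u * u1)⁻¹ = φ b (u' * u1') * (u' * u1')⁻¹ :=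
          congrArg Subtype.val h
        have hx : u * u'⁻¹ ∈ commRange (φ a) := mul_mem hu (inv_mem hu')
        have hy : u1 * u1'⁻¹ ∈ commRange (φ (b * a * b⁻¹)) := mul_mem hu1 (inv_mem hu1')
        have e0 : (u * u'⁻¹) * (u1 * u1'⁻¹) = (u * u1) / (u' * u1') := by
          rw [div_eq_mul_inv, mul_inv]; ac_rfl
        have hxy : φ b ((u * u'⁻¹) * (u1 * u1'⁻¹)) = (u * u'⁻¹) * (u1 * u1'⁻¹) := by
          rw [e0, map_div]
          rw [← div_eq_mul_inv, ← div_eq_mul_inv] at h0
          exact div_eq_div_iff_div_eq_div.mp h0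
        obtain ⟨hX, hY⟩ := hkey _ hx _ hy hxy
        have huu : u = u' := mul_inv_eq_one.mp hX
        have huu1 : u1 = u1' := mul_inv_eq_one.mp hY
        subst huu; subst huu1; rfl
      have hcard := Nat.card_le_card_of_injective g hg
      rw [Nat.card_prod, ha, hc1, hb] at hcard
      norm_num at hcard

theorem lemT : Cfsg.Agent.Lib.Helper77.KS12.LemT.{u} := by
  intro V _ hexp E _ _ hE φ a b ha hb
  exact lemT_aux hexp (Nat.card E) E rfl hE φ a b ha hb

end Cfsg.Agent.Lib.Helper83.KS12
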